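import Mathlib
import Cfsg.Agent.Lib.Glaub.Ext
import Cfsg.Agent.Lib.Triple.Cover

/-! Invariant characters over a central character, and Isaacs 13.31. -/

set_option autoImplicit false

namespace CfsgLib.Glaub

open Cfsg CfsgLib.Char CfsgLib.CharDeep CfsgLib.Triple Finset
open scoped ComplexConjugate

section central

open scoped IsMulCommutative

variable {G : Type*} [Group G] [Finite G]

theorem mul_pow_index_of_le_center (Z : Subgroup G) (hZ : Z ≤ Subgroup.center G) (a b : G) :
    (a * b) ^ Z.index = a ^ Z.index * b ^ Z.index := by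
  have key : ∀ g : G, ((MonoidHom.transfer (Subgroup.inclusion hZ) g : Subgroup.center G) : G) =
      g ^ Z.index := by
    intro g
    rw [MonoidHom.transfer_eq_pow (Subgroup.inclusion hZ) g (fun k g₀ h => by
      have := Subgroup.mem_center_iff.mp (hZ h) g₀
      calc g₀⁻¹ * g ^ k * g₀ = g₀ * (g₀⁻¹ * g ^ k * g₀) * g₀⁻¹ := by rw [this]; group
        _ = g ^ k := by group)]
    rfl
  rw [← key, ← key, ← key, map_mul, Subgroup.coe_mul]

/-- A central subgroup is supplemented by a characteristic subgroup whose order only involves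
primes dividing the index. -/
theorem exists_supplement_of_le_center (Z : Subgroup G) (hZ : Z ≤ Subgroup.center G) :
    ∃ (H : Subgroup G) (k : ℕ), (∀ g, g ∈ H ↔ g ^ Z.index ^ k = 1) ∧
      (∀ m : ℕ, m.Coprime Z.index → m.Coprime (Nat.card H)) ∧
      ∀ g : G, ∃ h ∈ H, ∃ z ∈ Z, g = h * z := by
  have hn : Z.Normal := ⟨fun z hz g => by
    rw [Subgroup.mem_center_iff.mp (hZ hz) g]; simpa using hz⟩
  set n := Z.index with hnZ
  have hn0 : n ≠ 0 := Z.index_ne_zero_of_finite
  let k := Nat.card G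
  let f : G →* G := MonoidHom.mk' (fun g => g ^ n ^ (k + 1)) (fun a b => by
    simp only [pow_succ' n, pow_mul]
    rw [mul_pow_index_of_le_center Z hZ, Commute.mul_pow]
    exact Subgroup.mem_center_iff.mp (hZ (Z.pow_index_mem b)) _)
  refine ⟨f.ker, k + 1, fun g => Iff.rfl, fun m hm => ?_, fun g => ?_⟩
  · refine Nat.coprime_of_dvd fun q hq hqm hqH => ?_
    have : Fact q.Prime := ⟨hq⟩
    obtain ⟨x, hx⟩ := exists_prime_orderOf_dvd_card' q hqH
    have h1 : q ∣ n ^ (k + 1) := by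
      rw [← hx, ← Subgroup.orderOf_coe]
      exact orderOf_dvd_of_pow_eq_one x.2
    exact hq.ne_one (Nat.eq_one_of_dvd_coprimes hm hqm (hq.dvd_of_dvd_pow h1))
  · have h1 : (orderOf (f g)).Coprime (n ^ (k + 1)) := by
      change (orderOf (g ^ n ^ (k + 1))).Coprime _
      rw [orderOf_pow' g (pow_ne_zero _ hn0)]
      have ho : orderOf g ≠ 0 := (orderOf_pos g).ne'
      refine Nat.Coprime.pow_right _ (Nat.coprime_of_dvd fun q hq h2 h3 => ?_)
      have h4 : (orderOf g).factorization q ≤ (n ^ (k + 1)).factorization q := by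
        rw [Nat.factorization_pow, Finsupp.smul_apply, smul_eq_mul]
        have h5 : 1 ≤ n.factorization q := (hq.dvd_iff_one_le_factorization hn0).mp h3
        have h6 : (orderOf g).factorization q ≤ k :=
          (Nat.factorization_lt q ho).le.trans orderOf_le_card
        nlinarith
      have h7 := (hq.dvd_iff_one_le_factorization (Nat.div_ne_zero_iff_of_dvd
        (Nat.gcd_dvd_left _ _) |>.mpr ⟨ho, Nat.gcd_ne_zero_left ho⟩)).mp h2
      rw [Nat.factorization_div (Nat.gcd_dvd_left _ _), Nat.factorization_gcd ho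
        (pow_ne_zero _ hn0), Finsupp.tsub_apply, Finsupp.inf_apply, inf_eq_left.mpr h4] at h7
      simp at h7
    obtain ⟨j, hj⟩ := exists_pow_eq_self_of_coprime h1.symm
    have hfZ : f g ∈ Z := by
      change g ^ n ^ (k + 1) ∈ Z
      rw [pow_succ', pow_mul]
      exact Z.pow_mem (Z.pow_index_mem g) _
    refine ⟨g * (f g ^ j)⁻¹, ?_, f g ^ j, Z.pow_mem hfZ j, by simp⟩
    rw [MonoidHom.mem_ker, map_mul, map_inv, mul_inv_eq_one]
    change f g = (f g ^ j) ^ n ^ (k + 1)
    rw [← pow_mul, mul_comm, pow_mul, hj]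

/-- Extending a character over a central product. -/
theorem exists_irr_central_prod (H Z : Subgroup G) (hZ : Z ≤ Subgroup.center G)
    (hHZ : ∀ g : G, ∃ h ∈ H, ∃ z ∈ Z, g = h * z) (l : Z →* ℂˣ) {β : H → ℂ}
    (hβ : IsIrrCharacter H β) (hl : ∀ (z : H) (hz : (z : G) ∈ Z), β z = l ⟨z, hz⟩ * β 1) :
    ∃ χ, IsIrrCharacter G χ ∧ ∀ (h : H) (z : Z), χ (h * z) = l z * β h := by
  let m : H × Z →* G := MonoidHom.noncommCoprod H.subtype Z.subtype
    (fun h z => Subgroup.mem_center_iff.mp (hZ z.2) h)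
  have hm : Function.Surjective m := fun g => by
    obtain ⟨h, hh, z, hz, rfl⟩ := hHZ g
    exact ⟨(⟨h, hh⟩, ⟨z, hz⟩), rfl⟩
  obtain ⟨χ, hχ, h⟩ := exists_irr_comp_eq m hm (isIrr_linear_mul (l.comp (MonoidHom.snd H Z))
    (isIrr_comp_of_surjective (MonoidHom.fst H Z) Prod.fst_surjective hβ)) (by
      rintro ⟨h, z⟩ h1
      have h2 : (h : G) = (z : G)⁻¹ := eq_inv_of_mul_eq_one_left h1
      have h3 : (h : G) ∈ Z := h2 ▸ Z.inv_mem z.2
      have h4 : (⟨h, h3⟩ : Z) = z⁻¹ := Subtype.ext h2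
      change (l z : ℂ) * β h = l 1 * β 1
      rw [hl h h3, h4, ← mul_assoc, ← Units.val_mul, ← map_mul, mul_inv_cancel])
  exact ⟨χ, hχ, fun a z => h (a, z)⟩

omit [Finite G] in
theorem mult_ne_zero_iff_central [Fintype G] {M : Type*} [Group M] [Fintype M] (κ : M →* G)
    (hκ : ∀ m, κ m ∈ Subgroup.center G) (l : M →* ℂˣ) {χ : G → ℂ} (hχ : IsIrrCharacter G χ) :
    mult κ χ (fun m => ((l m : ℂˣ) : ℂ)) ≠ 0 ↔ ∀ m, χ (κ m) = l m * χ 1 := by
  have hc := isCharacter_of_isIrr hχ
  rw [mult_ne_zero_iff κ hc (isCharacter_of_isIrr (isIrr_unitsHom l))]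
  obtain ⟨μ, hμ⟩ := exists_hom_charCenter (irr_one_ne_zero hχ)
  let μ' : M →* ℂˣ := μ.comp (κ.codRestrict _ fun m => center_le_charCenter hχ (hκ m))
  have h1 : ∀ m, χ (κ m) = μ' m * χ 1 := fun m => by
    have := hμ ⟨κ m, center_le_charCenter hχ (hκ m)⟩ 1
    rwa [mul_one] at this
  have h2 : (fun m => χ (κ m)) = χ 1 • fun m => (μ' m : ℂ) := by
    funext m; rw [h1, mul_comm]; rfl
  rw [h2, classInner_smul_left]
  constructor
  · intro h m
    have := irr_eq_of_classInner_ne_zero (isIrr_unitsHom μ') (isIrr_unitsHom l)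
      (right_ne_zero_of_mul h)
    rw [h1, congrFun this m]
  · intro h
    have : (fun m => (μ' m : ℂ)) = fun m => (l m : ℂ) := funext fun m =>
      mul_right_cancel₀ (irr_one_ne_zero hχ) ((h1 m).symm.trans (h m))
    rw [this, classInner_irr_self (isIrr_unitsHom l), mul_one]
    exact irr_one_ne_zero hχ

/-- Invariant characters over a character of a central subgroup of coprime index. -/
theorem exists_inv_over_central {A : Type*} [Group A] [Finite A] [Group.IsSolvable A]
    (φ : A →* MulAut G) (Z : Subgroup G) (hZ : Z ≤ Subgroup.center G)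
    (hφ : ∀ a, ∀ z ∈ Z, φ a z = z) (hcop : (Nat.card A).Coprime Z.index) (l : Z →* ℂˣ) :
    ∃ χ, IsIrrCharacter G χ ∧ Inv φ χ ∧ ∀ z : Z, χ z = l z * χ 1 := by
  classical
  obtain ⟨H, k, hH, hHc, hHZ⟩ := exists_supplement_of_le_center Z hZ
  have hHφ : ∀ a, ∀ g ∈ H, φ a g ∈ H := fun a g hg => by
    rw [hH] at hg ⊢
    rw [← map_pow, hg, map_one]
  have := Fintype.ofFinite H
  have := Fintype.ofFinite (Z.subgroupOf H)
  have hcent : ∀ m : Z.subgroupOf H, (Z.subgroupOf H).subtype m ∈ Subgroup.center H :=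
    fun m => Subgroup.mem_center_iff.mpr fun g =>
      Subtype.ext (Subgroup.mem_center_iff.mp (hZ m.2) g)
  have : (Z.subgroupOf H).subtype.range.Normal := ⟨by
    rintro _ ⟨m, rfl⟩ g
    exact ⟨m, by rw [Subgroup.mem_center_iff.mp (hcent m) g]; simp⟩⟩
  let l' : Z.subgroupOf H →* ℂˣ :=
    l.comp ((H.subtype.comp (Z.subgroupOf H).subtype).codRestrict Z fun m => m.2)
  obtain ⟨β, hβ, hβi, hβl⟩ := exists_inv_over (subAut φ H hHφ) (hHc _ hcop).symm
    (Z.subgroupOf H).subtype (Subgroup.subtype_injective _) (1 : A →* MulAut (Z.subgroupOf H))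
    (fun a m => Subtype.ext (hφ a _ m.2).symm) (isIrr_unitsHom l') (fun _ _ => rfl)
  rw [mult_ne_zero_iff_central _ hcent l' hβ] at hβl
  obtain ⟨χ, hχ, h⟩ := exists_irr_central_prod H Z hZ hHZ l hβ (fun z hz => hβl ⟨z, hz⟩)
  refine ⟨χ, hχ, fun a g => ?_, fun z => ?_⟩
  · obtain ⟨x, hx, z, hz, rfl⟩ := hHZ g
    rw [map_mul, hφ a z hz, h ⟨x, hx⟩ ⟨z, hz⟩, ← hβi a]
    exact h ⟨φ a x, hHφ a x hx⟩ ⟨z, hz⟩
  · have h1 := h 1 z
    have h2 := h 1 1
    simp only [OneMemClass.coe_one, one_mul, map_one, Units.val_one] at h1 h2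
    rw [h1, h2]

/-- Isaacs 13.31 for a central subgroup. -/
theorem exists_conj_inv_over_central (K Z : Subgroup G) [hK : K.Normal] [hZn : Z.Normal] (hZK : Z ≤ K)
    (hZ : Z ≤ Subgroup.center G) (hcop : K.index.Coprime (Z.relIndex K))
    (hs : Group.IsSolvable (G ⧸ K) ∨ Group.IsSolvable (K ⧸ Z.subgroupOf K)) (l : Z →* ℂˣ) :
    ∃ χ, IsIrrCharacter K χ ∧ (∀ (g : G) (k : K), χ (cj K g k) = χ k) ∧
      ∀ z : Z, χ ⟨z, hZK z.2⟩ = l z * χ 1 := by
  classical
  let f := QuotientGroup.mk' Z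
  have hf : Function.Surjective f := QuotientGroup.mk'_surjective Z
  have : (K.map f).Normal := hK.map f hf
  have h1 : Nat.card (K.map f) = Z.relIndex K := by
    rw [← Subgroup.relIndex_ker, QuotientGroup.ker_mk']
  have h2 : (K.map f).index = K.index := by
    rw [Subgroup.index_map, QuotientGroup.ker_mk', sup_eq_left.mpr hZK,
      MonoidHom.range_eq_top.mpr hf, Subgroup.index_top, mul_one]
  obtain ⟨S, hS⟩ := Subgroup.exists_right_complement'_of_coprime (N := K.map f)
    (by rw [h1, h2]; exact hcop.symm)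
  have h3 : Nat.card S = K.index := by rw [← h2, hS.symm.index_eq_card]
  let ψ : G ⧸ Z →* MulAut K := QuotientGroup.lift Z MulAut.conjNormal (fun z hz => by
    ext k
    change z * k * z⁻¹ = k
    rw [← Subgroup.mem_center_iff.mp (hZ hz) k]; simp)
  let φ : S →* MulAut K := ψ.comp S.subtype
  let l' : Z.subgroupOf K →* ℂˣ := l.comp (Subgroup.subgroupOfEquivOfLe hZK).toMonoidHom
  have hZ' : Z.subgroupOf K ≤ Subgroup.center K := fun z hz =>
    Subgroup.mem_center_iff.mpr fun g => Subtype.ext (Subgroup.mem_center_iff.mp (hZ hz) g)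
  have hφ : ∀ a, ∀ z ∈ Z.subgroupOf K, φ a z = z := by
    rintro ⟨a, ha⟩ z hz
    obtain ⟨g, rfl⟩ := hf a
    apply Subtype.ext
    change g * z * g⁻¹ = z
    have : g * z = z * g := Subgroup.mem_center_iff.mp (hZ hz) g
    rw [this]; simp
  obtain ⟨χ, hχ, hi, hl⟩ : ∃ χ, IsIrrCharacter K χ ∧ Inv φ χ ∧
      ∀ z : Z.subgroupOf K, χ z = l' z * χ 1 := by
    rcases hs with hs | hs
    · have : Group.IsSolvable (( G ⧸ Z) ⧸ K.map f) := Group.isSolvable_of_surjective
        (f := (QuotientGroup.quotientQuotientEquivQuotient Z K hZK).symm.toMonoidHom)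
        (MulEquiv.surjective _)
      have : Group.IsSolvable S := Group.isSolvable_of_surjective
        (f := hS.symm.QuotientMulEquiv.toMonoidHom) (MulEquiv.surjective _)
      exact exists_inv_over_central φ _ hZ' hφ (h3 ▸ hcop) l'
    · have := Fintype.ofFinite K
      obtain ⟨χ, hχ, hi, hl⟩ := exists_inv_over_of_solvable φ (Z.subgroupOf K).subtype
        (Subgroup.subtype_injective _) (QuotientGroup.mk' (Z.subgroupOf K))
        (by rw [QuotientGroup.ker_mk', Subgroup.range_subtype])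
        (by rw [Subgroup.range_subtype, h3]; exact hcop) (1 : S →* MulAut (Z.subgroupOf K))
        (fun a m => (hφ a _ m.2).symm) (isIrr_unitsHom l') (fun _ _ => rfl)
      exact ⟨χ, hχ, hi, (mult_ne_zero_iff_central _ (fun m => hZ' m.2) l' hχ).mp hl⟩
  refine ⟨χ, hχ, fun g k => ?_, fun z => hl ⟨⟨z, hZK z.2⟩, z.2⟩⟩
  obtain ⟨⟨⟨_, x, hx, rfl⟩, s⟩, h⟩ := hS.2 (f g)
  have h4 : cj K g k = ψ (f x * s) k := by
    simp only at h
    rw [h]; rfl
  rw [h4, map_mul, MulAut.mul_apply, ← hi s k]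
  exact isClassFunction_of_isIrr hχ (φ s k) ⟨x, hx⟩

end central

/-- Isaacs 13.31. -/
theorem exists_conj_inv_over {Γ : Type*} [Group Γ] [Finite Γ] (G N : Subgroup Γ) [hG : G.Normal]
    [hN : N.Normal] [Fintype N] (hNG : N ≤ G) (hcop : G.index.Coprime (N.relIndex G))
    (hs : Group.IsSolvable (Γ ⧸ G) ∨ Group.IsSolvable (G ⧸ N.subgroupOf G)) {θ : N → ℂ}
    (hθ : IsIrrCharacter N θ) (hinv : ∀ (x : Γ) (n : N), θ (cj N x n) = θ n) :
    ∃ χ, IsIrrCharacter G χ ∧ classInner (fun n : N => χ ⟨n, hNG n.2⟩) θ ≠ 0 ∧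
      ∀ (x : Γ) (g : G), χ (cj G x g) = χ g := by
  classical
  obtain ⟨d, hd⟩ := exists_char_one_eq_nat (isCharacter_of_isIrr hθ)
  obtain ⟨Δ, _, _, c, -, -⟩ := exists_cover N hθ hinv hd
  let q := QuotientGroup.mk' c.ι.range
  have hq : Function.Surjective q := QuotientGroup.mk'_surjective _
  have hqk : q.ker = c.ι.range := QuotientGroup.ker_mk' _
  let G' : Subgroup Δ := G.comap c.π
  have hιG : c.ι.range ≤ G' := le_sup_right.trans (c.comap_eq.ge.trans (Subgroup.comap_mono hNG))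
  have hkG : c.π.ker ≤ G' := le_sup_left.trans (c.comap_eq.ge.trans (Subgroup.comap_mono hNG))
  have : (G'.map q).Normal := Subgroup.Normal.map inferInstance q hq
  have : (c.π.ker.map q).Normal := Subgroup.Normal.map inferInstance q hq
  have hinj : Function.Injective (q.subgroupMap c.π.ker) := by
    rw [injective_iff_map_eq_one]
    intro z hz
    have h1 : (z : Δ) ∈ c.π.ker ⊓ c.ι.range := ⟨z.2, hqk ▸ congrArg Subtype.val hz⟩
    rw [c.ker_inf_range] at h1
    exact Subtype.ext h1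
  let e := MulEquiv.ofBijective (q.subgroupMap c.π.ker) ⟨hinj, q.subgroupMap_surjective _⟩
  have hZ : c.π.ker.map q = (N.comap c.π).map q := by
    rw [c.comap_eq, Subgroup.map_sup, (Subgroup.map_eq_bot_iff _).mpr hqk.ge, sup_bot_eq]
  have hi1 : (G'.map q).index = G.index := by
    rw [Subgroup.index_map, hqk, sup_eq_left.mpr hιG, MonoidHom.range_eq_top.mpr hq,
      Subgroup.index_top, mul_one, G.index_comap_of_surjective c.surj]
  have hi2 : (c.π.ker.map q).index = N.index := by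
    rw [hZ, Subgroup.index_map, hqk, sup_eq_left.mpr (le_sup_right.trans c.comap_eq.ge),
      MonoidHom.range_eq_top.mpr hq, Subgroup.index_top, mul_one,
      N.index_comap_of_surjective c.surj]
  have hi3 : (c.π.ker.map q).relIndex (G'.map q) = N.relIndex G := by
    have e1 := Subgroup.relIndex_mul_index (Subgroup.map_mono (f := q) hkG)
    have e2 := Subgroup.relIndex_mul_index hNG
    rw [hi1, hi2, ← e2] at e1
    exact Nat.eq_of_mul_eq_mul_right (Nat.pos_of_ne_zero G.index_ne_zero_of_finite) e1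
  let p : G' →* G := c.π.subgroupComap G
  have hp : Function.Surjective p := c.π.subgroupComap_surjective_of_surjective G c.surj
  let q' : G' →* G'.map q := q.subgroupMap G'
  have hq' : Function.Surjective q' := q.subgroupMap_surjective G'
  obtain ⟨β, hβ, hβi, hβl⟩ := exists_conj_inv_over_central (G'.map q) (c.π.ker.map q)
    (Subgroup.map_mono hkG) (by
      rintro _ ⟨z, hz, rfl⟩
      rw [Subgroup.mem_center_iff]
      intro g
      obtain ⟨g, rfl⟩ := hq g
      rw [← map_mul, ← map_mul, Subgroup.mem_center_iff.mp (c.central hz) g])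
    (by rw [hi1, hi3]; exact hcop) (by
      rcases hs with hs | hs
      · left
        let r : Δ →* Γ ⧸ G := (QuotientGroup.mk' G).comp c.π
        have hr : Function.Surjective r := (QuotientGroup.mk'_surjective G).comp c.surj
        let s : Δ →* (Δ ⧸ c.ι.range) ⧸ G'.map q := (QuotientGroup.mk' _).comp q
        have hs' : Function.Surjective s := (QuotientGroup.mk'_surjective _).comp hq
        refine Group.isSolvable_of_surjective (f := r.liftOfSurjective hr ⟨s, fun x hx => ?_⟩) ?_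
        · exact (QuotientGroup.eq_one_iff _).mpr ⟨x, (QuotientGroup.eq_one_iff (c.π x)).mp hx, rfl⟩
        · intro y
          obtain ⟨x, rfl⟩ := hs' y
          exact ⟨r x, by simp⟩
      · right
        let r : G' →* G ⧸ N.subgroupOf G := (QuotientGroup.mk' _).comp p
        have hr : Function.Surjective r := (QuotientGroup.mk'_surjective _).comp hp
        let s : G' →* G'.map q ⧸ (c.π.ker.map q).subgroupOf (G'.map q) :=
          (QuotientGroup.mk' _).comp q'
        have hs' : Function.Surjective s := (QuotientGroup.mk'_surjective _).comp hq'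
        refine Group.isSolvable_of_surjective (f := r.liftOfSurjective hr ⟨s, fun x hx => ?_⟩) ?_
        · refine (QuotientGroup.eq_one_iff _).mpr ?_
          rw [Subgroup.mem_subgroupOf, hZ]
          exact ⟨x, (QuotientGroup.eq_one_iff (p x)).mp hx, rfl⟩
        · intro y
          obtain ⟨x, rfl⟩ := hs' y
          exact ⟨r x, by simp⟩)
    (c.lam⁻¹.comp e.symm.toMonoidHom)
  have hEq : IsIrrCharacter q'.ker (fun n => c.E (n : G')) :=
    c.isIrr_res hθ (G'.subtype.comp q'.ker.subtype)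
      (G'.subtype_injective.comp q'.ker.subtype_injective) (by
        ext x
        constructor
        · rintro ⟨n, rfl⟩
          exact hqk.le (congrArg Subtype.val n.2)
        · intro hx
          exact ⟨⟨⟨x, hιG hx⟩, Subtype.ext (hqk.ge hx)⟩, rfl⟩)
  obtain ⟨χ, hχ, h⟩ := span_up p q' hp hq' (isCharacter_restrict G' (isCharacter_of_isIrr c.irr))
    hEq (fun z => c.lam ⟨(z : G'), congrArg Subtype.val z.2⟩)
    (fun z => by simpa using c.E_mul ⟨(z : G'), congrArg Subtype.val z.2⟩ 1) hβ (fun z => by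
      have h1 := hβl (e ⟨(z : G'), congrArg Subtype.val z.2⟩)
      have h2 : β (q' z) = _ := h1
      rw [h2, ← mul_assoc, ← Units.val_mul]
      simp)
  refine ⟨χ, hχ, ?_, fun x g => ?_⟩
  · have h1 : (fun n : N => χ ⟨n, hNG n.2⟩) = β 1 • θ := by
      funext n
      have h2 := h ⟨c.ι n, hιG ⟨n, rfl⟩⟩
      have h3 : q' ⟨c.ι n, hιG ⟨n, rfl⟩⟩ = 1 :=
        Subtype.ext (hqk.ge ⟨n, rfl⟩)
      have h4 : p ⟨c.ι n, hιG ⟨n, rfl⟩⟩ = ⟨n, hNG n.2⟩ := Subtype.ext (c.π_ι n)
      rw [h3, h4, c.E_ι] at h2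
      exact h2
    rw [h1, classInner_smul_left, classInner_irr_self hθ, mul_one]
    exact irr_one_ne_zero hβ
  · obtain ⟨x, rfl⟩ := c.surj x
    obtain ⟨g, rfl⟩ := hp g
    have h1 : cj G (c.π x) (p g) = p (cj G' x g) := Subtype.ext (by
      change c.π x * c.π g * (c.π x)⁻¹ = c.π (x * g * x⁻¹)
      simp)
    have h2 : q' (cj G' x g) = cj (G'.map q) (q x) (q' g) := Subtype.ext (by simp [cj_coe, q'])
    rw [h1, h, h, h2, hβi, cj_coe, isClassFunction_of_isIrr c.irr]

end CfsgLib.Glaub
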